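/-
The Shult-Gross theorem: a solvable group with a fixed-point-free automorphism of order `p ^ n`,
`p` odd, has Fitting length at most `n`.
-/
import Mathlib
import Cfsg.Agent.Lib.ShultGross.Layers
import Cfsg.Agent.Lib.CoprimeAction.Aut

set_option autoImplicit false
set_option linter.style.haveILetI false
set_option linter.unusedSectionVars false

namespace CfsgLib.ShultGross

open Cfsg CfsgLib.Cores CfsgLib.Subnormal

universe u

variable {G : Type u} [Group G] [Finite G]

theorem card_mod {p n : ℕ} [Fact p.Prime] {φ : MulAut G} (hφ : φ ^ p ^ n = 1)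
    (hfix : ∀ g, φ g = g → g = 1) : ¬ p ∣ Nat.card G := by
  classical
  haveI := Fintype.ofFinite G
  intro hd
  rw [Nat.card_eq_fintype_card] at hd
  obtain ⟨b, hb, hb1⟩ := Equiv.Perm.exists_fixed_point_of_prime' (p := p) (n := n) hd
    (σ := φ.toEquiv) (a := 1) (by
      refine Equiv.ext fun g => ?_
      have h : ∀ k, ((φ.toEquiv : Equiv.Perm G) ^ k) g = (φ ^ k) g := by
        intro k
        induction k with
        | zero => rfl
        | succ k ih => rw [pow_succ', Equiv.Perm.mul_apply, pow_succ', MulAut.mul_apply, ih]; rfl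
      rw [h, hφ]
      rfl) (map_one φ)
  exact hb1 (hfix b hb)

theorem card_quotient_lt {N : Subgroup G} [N.Normal] (hN : N ≠ ⊥) :
    Nat.card (G ⧸ N) < Nat.card G := by
  rw [← N.index_eq_card]
  conv_rhs => rw [← N.card_mul_index]
  exact lt_mul_of_one_lt_left (Nat.pos_of_ne_zero N.index_ne_zero_of_finite)
    ((Subgroup.one_lt_card_iff_ne_bot N).2 hN)

/-- The main induction. -/
theorem fitRes_top_eq_bot {p : ℕ} [Fact p.Prime] (hp2 : p ≠ 2) :
    ∀ (n : ℕ) (G : Type u) [Group G] [Finite G] [Group.IsSolvable G] (φ : MulAut G),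
      φ ^ p ^ n = 1 → (∀ g, φ g = g → g = 1) → fitRes n (⊤ : Subgroup G) = ⊥ := by
  classical
  intro n
  induction n with
  | zero =>
    intro G _ _ _ φ hφ hfix
    rw [fitRes_zero, eq_bot_iff]
    intro g _
    rw [pow_zero, pow_one] at hφ
    exact Subgroup.mem_bot.2 (hfix g (by rw [hφ]; rfl))
  | succ n IHn =>
    intro G _ _ _ φ hφ hfix
    generalize hN : Nat.card G = N
    induction N using Nat.strong_induction_on generalizing G with
    | _ N ihN =>
    subst hN
    by_contra hL
    set L := fitRes (n + 1) (⊤ : Subgroup G) with hLdef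
    have hpG : ¬ p ∣ Nat.card G := card_mod hφ hfix
    -- `L` lies in every nontrivial invariant normal subgroup
    have hquot : ∀ M : Subgroup G, M.Normal → (∀ g ∈ M, φ g ∈ M) → M ≠ ⊥ → L ≤ M := by
      intro M _ hMi hM
      have hmap : M.map φ.toMonoidHom = M :=
        Subgroup.eq_of_le_of_card_ge (Subgroup.map_le_iff_le_comap.mpr hMi)
          (Nat.card_congr (M.equivMapOfInjective _ φ.injective).toEquiv).le
      have hiter : ∀ k (g : G), ((QuotientGroup.congr M M φ hmap : MulAut (G ⧸ M)) ^ k) (g : G ⧸ M) =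
          (((φ ^ k) g : G) : G ⧸ M) := by
        intro k
        induction k with
        | zero => intro g; rfl
        | succ k ih => intro g; rw [pow_succ', MulAut.mul_apply, ih, pow_succ', MulAut.mul_apply]; rfl
      have h := ihN (Nat.card (G ⧸ M)) (card_quotient_lt hM) (G ⧸ M)
        (QuotientGroup.congr M M φ hmap : MulAut (G ⧸ M)) (by
          refine MulEquiv.ext fun u => ?_
          induction u using QuotientGroup.induction_on with | _ g =>
          rw [hiter, hφ]
          rfl) (fun u hu => by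
          induction u using QuotientGroup.induction_on with | _ g =>
          change ((φ g : G) : G ⧸ M) = _ at hu
          rw [QuotientGroup.eq] at hu
          have hsurj : ∀ b : M, ∃ a : M, (⟨φ a, hMi _ a.2⟩ : M)⁻¹ * a = b := by
            refine Finite.injective_iff_surjective.1 fun a a' h => ?_
            have h1 : (φ a)⁻¹ * (a : G) = (φ a')⁻¹ * (a' : G) := congrArg Subtype.val h
            have h2 : φ ((a' : G) * (a : G)⁻¹) = (a' : G) * (a : G)⁻¹ := by
              calc φ ((a' : G) * (a : G)⁻¹) = φ a' * ((φ a)⁻¹ * a) * (a : G)⁻¹ := by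
                    rw [map_mul, map_inv]; group
                _ = _ := by rw [h1]; group
            exact Subtype.ext (mul_inv_eq_one.1 (hfix _ h2)).symm
          obtain ⟨a, ha⟩ := hsurj ⟨_, hu⟩
          have ha' : (φ a)⁻¹ * (a : G) = (φ g)⁻¹ * g := congrArg Subtype.val ha
          have h2 : φ (g * (a : G)⁻¹) = g * (a : G)⁻¹ := by
            calc φ (g * (a : G)⁻¹) = φ g * ((φ a)⁻¹ * a) * (a : G)⁻¹ := by
                  rw [map_mul, map_inv]; group
              _ = _ := by rw [ha']; group
          rw [QuotientGroup.eq_one_iff, mul_inv_eq_one.1 (hfix _ h2)]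
          exact a.2) rfl
      have h2 := map_fitRes (QuotientGroup.mk' M) (n + 1) (⊤ : Subgroup G)
      rw [Subgroup.map_top_of_surjective _ (QuotientGroup.mk'_surjective M), h,
        Subgroup.map_eq_bot_iff, QuotientGroup.ker_mk'] at h2
      exact h2
    have hchar : ∀ C : Subgroup G, C.Characteristic → ∀ g ∈ C, φ g ∈ C := fun C hC g hg =>
      (Subgroup.characteristic_iff_map_le.1 hC φ) ⟨g, hg, rfl⟩
    haveI : Nontrivial G := by
      by_contra h
      rw [not_nontrivial_iff_subsingleton] at h
      exact hL (Subgroup.eq_bot_of_subsingleton _)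
    obtain ⟨q, hq, hqne⟩ : ∃ q : ℕ, q.Prime ∧ pCore q G ≠ ⊥ := by
      by_contra! h
      exact fittingSubgroup_ne_bot (fittingSubgroup_eq_bot_iff.2 h)
    haveI := Fact.mk hq
    have hqp : q ≠ p := by
      rintro rfl
      obtain ⟨j, hj⟩ := IsPGroup.iff_card.1 (isPGroup_pCore q G)
      rcases j with _ | j
      · exact hqne (Subgroup.eq_bot_of_card_eq _ (by simpa using hj))
      · exact hpG ((dvd_pow_self q (Nat.succ_ne_zero j)).trans
          (hj ▸ Subgroup.card_subgroup_dvd_card _))
    set F := pCore q G with hFdef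
    have hFp : IsPGroup q F := isPGroup_pCore q G
    have hLF : L ≤ F := hquot F inferInstance (hchar F inferInstance) hqne
    have hfit : fittingSubgroup G = F := by
      refine le_antisymm ?_ (pCore_le_fittingSubgroup q)
      rw [fittingSubgroup_eq_iSup_pCore]
      refine iSup_le fun r => ?_
      haveI := Fact.mk (Nat.prime_of_mem_primeFactors r.2)
      by_cases hr : (r : ℕ) = q
      · rw [hr]
      · by_cases hb : pCore (r : ℕ) G = ⊥
        · rw [hb]; exact bot_le
        · exact absurd (le_bot_iff.1 ((le_inf (hquot _ inferInstance (hchar _ inferInstance) hb) hLF).trans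
            (disjoint_pCore_of_ne hr).le_bot)) hL
    -- the semidirect product
    let A := Subgroup.zpowers φ
    haveI : Finite (MulAut G) := Finite.of_injective _ MulEquiv.toEquiv_injective
    haveI : Finite (G ⋊[A.subtype] A) := CoprimeAction.finite_semidirect A.subtype
    let il : G →* G ⋊[A.subtype] A := SemidirectProduct.inl
    let y : G ⋊[A.subtype] A := SemidirectProduct.inr ⟨φ, Subgroup.mem_zpowers φ⟩
    have hconj : ∀ g : G, y * il g * y⁻¹ = il (φ g) := fun g => by
      rw [show y⁻¹ = SemidirectProduct.inr (⟨φ, Subgroup.mem_zpowers φ⟩ : A)⁻¹ from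
        (map_inv SemidirectProduct.inr _).symm]
      exact (SemidirectProduct.inl_aut (φ := A.subtype) ⟨φ, Subgroup.mem_zpowers φ⟩ g).symm
    have hyn : y ^ p ^ (n + 1) = 1 := by
      rw [← map_pow, show (⟨φ, Subgroup.mem_zpowers φ⟩ : A) ^ p ^ (n + 1) = 1 from Subtype.ext hφ,
        map_one]
    set P := F.map il with hPdef
    have hgen : ∀ w : G ⋊[A.subtype] A, ∀ g ∈ F, w * il g * w⁻¹ ∈ P := by
      intro w g hg
      obtain ⟨i, hi⟩ := Subgroup.mem_zpowers_iff.1 w.right.2
      refine ⟨w.left * (w.right : MulAut G) g * w.left⁻¹, ?_, ?_⟩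
      · exact (inferInstance : F.Normal).conj_mem _
          ((Subgroup.characteristic_iff_map_le.1 (inferInstance : F.Characteristic) _) ⟨g, hg, rfl⟩) _
      · conv_rhs => rw [← SemidirectProduct.inl_left_mul_inr_right w]
        rw [mul_inv_rev, map_mul, map_mul, map_inv]
        show il w.left * il ((A.subtype w.right) g) * (il w.left)⁻¹ = _
        rw [SemidirectProduct.inl_aut, map_inv]
        simp only [mul_assoc]
        rfl
    haveI hPn : P.Normal := ⟨by rintro _ ⟨g, hg, rfl⟩ w; exact hgen w g hg⟩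
    obtain ⟨d, r, ρ₀, hr, hρ₀, hspan, hker⟩ := exists_rep P (hFp.map il)
    have hPker : P ≤ ρ₀.ker := by
      intro a ha
      rw [MonoidHom.mem_ker, hker]
      intro b hb
      refine ⟨⟨b, hb⟩⁻¹ * (⟨a, ha⟩ * ⟨b, hb⟩ * ⟨a, ha⟩⁻¹), ?_, rfl⟩
      have hc := CfsgLib.PGroups.commutator_le_frattini (hFp.map il)
        (Subgroup.commutator_mem_commutator (Subgroup.mem_top (⟨b, hb⟩ : P)⁻¹)
          (Subgroup.mem_top (⟨a, ha⟩ : P)))
      simpa [commutatorElement_def, mul_assoc] using hc
    let mk := QuotientGroup.mk' P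
    let i' : G →* (G ⋊[A.subtype] A) ⧸ P := mk.comp il
    let ρ := QuotientGroup.lift P ρ₀ hPker
    have hikey : ∀ g : G, i' g = 1 ↔ g ∈ F := fun g => by
      show (il g : (G ⋊[A.subtype] A) ⧸ P) = 1 ↔ _
      rw [QuotientGroup.eq_one_iff, hPdef]
      exact Subgroup.mem_map_iff_mem SemidirectProduct.inl_injective
    set H := i'.range with hH
    haveI : H.Normal := by
      rw [hH, MonoidHom.range_comp, SemidirectProduct.range_inl_eq_ker_rightHom]
      exact Subgroup.Normal.map inferInstance mk (QuotientGroup.mk'_surjective P)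
    haveI : Group.IsSolvable H := Group.isSolvable_of_surjective i'.rangeRestrict_surjective
    set x := mk y with hx
    have hxconj : ∀ g : G, x * i' g * x⁻¹ = i' (φ g) := fun g => by
      show mk y * mk (il g) * (mk y)⁻¹ = mk (il (φ g))
      rw [← map_inv, ← map_mul, ← map_mul, hconj]
    have hfixH : ∀ h ∈ H, x * h * x⁻¹ = h → h = 1 := by
      rintro _ ⟨g, rfl⟩ hg
      rw [hxconj, ← div_eq_one, ← map_div, hikey, div_eq_mul_inv] at hg
      rw [hikey]
      have hsurj : ∀ b : F, ∃ a : F, (⟨φ a, hchar F inferInstance _ a.2⟩ : F) * a⁻¹ = b := by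
        refine Finite.injective_iff_surjective.1 fun a a' h => ?_
        have h1 : φ a * (a : G)⁻¹ = φ a' * (a' : G)⁻¹ := congrArg Subtype.val h
        have h2 : φ ((a' : G)⁻¹ * a) = (a' : G)⁻¹ * a := by
          calc φ ((a' : G)⁻¹ * a) = (φ a')⁻¹ * (φ a * (a : G)⁻¹) * a := by
                rw [map_mul, map_inv]; group
            _ = _ := by rw [h1]; group
        exact Subtype.ext (inv_mul_eq_one.1 (hfix _ h2)).symm
      obtain ⟨a, ha⟩ := hsurj ⟨_, hg⟩
      have ha' : φ a * (a : G)⁻¹ = φ g * g⁻¹ := congrArg Subtype.val ha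
      have h2 : φ ((a : G)⁻¹ * g) = (a : G)⁻¹ * g := by
        calc φ ((a : G)⁻¹ * g) = (φ a)⁻¹ * (φ g * g⁻¹) * g := by rw [map_mul, map_inv]; group
          _ = _ := by rw [← ha']; group
      rw [← inv_mul_eq_one.1 (hfix _ h2)]
      exact a.2
    have hfix2 : ∀ v, ρ x v = v → v = 0 := by
      refine fixed_zero hr hρ₀ hspan ?_
      rintro _ ⟨a, -, rfl⟩ ha
      rw [hconj] at ha
      rw [hfix a (SemidirectProduct.inl_injective ha), map_one]
    have hqH : ∀ N : Subgroup ((G ⋊[A.subtype] A) ⧸ P), N.Normal → N ≤ H → IsPGroup q N → N = ⊥ := by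
      intro N hNn hNH hNp
      haveI := hNn
      set N' := N.comap i' with hN'
      have hN'F : N' ≤ F := by
        refine le_pCore (N := N') fun g => ?_
        obtain ⟨a, ha⟩ := hNp ⟨i' g, g.2⟩
        have h1 : (g : G) ^ q ^ a ∈ F := by
          rw [← hikey, map_pow]
          exact congrArg Subtype.val ha
        obtain ⟨b, hb⟩ := hFp ⟨_, h1⟩
        refine ⟨a + b, Subtype.ext ?_⟩
        rw [SubmonoidClass.coe_pow, pow_add, pow_mul]
        exact congrArg Subtype.val hb
      rw [eq_bot_iff]
      intro u hu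
      obtain ⟨g, rfl⟩ := hNH hu
      exact Subgroup.mem_bot.2 ((hikey g).2 (hN'F hu))
    have hfaith : ∀ h ∈ H, ρ h = 1 → h = 1 := by
      set K0 := ρ₀.ker.comap il with hK0
      have hK0F : K0 ≤ F := by
        refine le_pCore (N := K0) fun g => ?_
        obtain ⟨b', c, hbc, ⟨k, hbk⟩, hc⟩ :=
          CfsgLib.NormalPComplement.exists_pParts (p := q) (isOfFinOrder_of_finite (g : G))
        refine ⟨k, Subtype.ext ?_⟩
        have hgc : (g : G) ^ c ∈ Subgroup.centralizer (F : Set G) := by
          have hz : Subgroup.zpowers (il ((g : G) ^ c)) ≤ Subgroup.centralizer (P : Set _) := by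
            refine CoprimeAction.le_centralizer_of_frattini
              (by rw [Subgroup.normalizer_eq_top]; exact le_top) ?_ fun w hw b hb => (hker w).1 ?_ b hb
            · obtain ⟨m, hm⟩ := IsPGroup.iff_card.1 ((hFp.map il).to_subgroup (frattini P))
              rw [Nat.card_zpowers, orderOf_injective il SemidirectProduct.inl_injective, hm]
              exact hc.pow_right m
            · obtain ⟨i, rfl⟩ := Subgroup.mem_zpowers_iff.1 hw
              refine MonoidHom.mem_ker.1 (Subgroup.zpow_mem _ ?_ i)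
              rw [map_pow]
              exact Subgroup.pow_mem _ (show il (g : G) ∈ ρ₀.ker from g.2) c
          rw [Subgroup.mem_centralizer_iff]
          intro b hb
          apply SemidirectProduct.inl_injective (φ := A.subtype)
          show il (b * _) = il (_ * b)
          rw [map_mul, map_mul]
          exact Subgroup.mem_centralizer_iff.1 (hz (Subgroup.mem_zpowers _)) _ ⟨b, hb, rfl⟩
        have hgF : (g : G) ^ c ∈ F := by
          rw [← hfit]
          exact centralizer_fittingSubgroup_le (by rw [hfit]; exact hgc)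
        obtain ⟨j, hj⟩ := IsPGroup.iff_orderOf.1 hFp ⟨_, hgF⟩
        rw [Subgroup.orderOf_mk] at hj
        have hc1 : (g : G) ^ c = 1 :=
          orderOf_eq_one_iff.1 (Nat.eq_one_of_dvd_coprimes (hc.pow_right j) dvd_rfl (hj ▸ dvd_rfl))
        show (g : G) ^ q ^ k = 1
        conv_lhs => rw [← hbc, hc1, mul_one]
        exact orderOf_dvd_iff_pow_eq_one.1 hbk
      rintro _ ⟨g, rfl⟩ hg
      exact (hikey g).2 (hK0F (MonoidHom.mem_ker.2 hg))
    have hpH : ¬ p ∣ Nat.card H := fun h => hpG (h.trans (Subgroup.card_range_dvd i'))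
    have hIH : ∀ Y : Subgroup ((G ⋊[A.subtype] A) ⧸ P), Y ≤ H →
        x ∈ Subgroup.normalizer (Y : Set _) →
        (∀ h ∈ Y, x ^ p ^ n * h = h * x ^ p ^ n) → fitRes n Y = ⊥ := by
      intro Y hYH hxY hYz
      haveI : Group.IsSolvable Y := CoprimeAction.isSolvable_of_le hYH
      have h := IHn Y (Subgroup.normalizerMonoidHom Y ⟨x, hxY⟩) (by
        rw [← map_pow]
        refine MulEquiv.ext fun u => Subtype.ext ?_
        show x ^ p ^ n * (u : _) * (x ^ p ^ n)⁻¹ = u
        rw [hYz u u.2, mul_inv_cancel_right]) (fun u hu => Subtype.ext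
          (hfixH u (hYH u.2) (congrArg Subtype.val hu)))
      have h2 := map_fitRes Y.subtype n (⊤ : Subgroup Y)
      rwa [h, Subgroup.map_bot, ← MonoidHom.range_eq_map, Subgroup.range_subtype, eq_comm] at h2
    have hmain := key hp2 (H := H) (x := x) (by rw [hx, ← map_pow, hyn, map_one]) hfixH hpH hqp hqH
      ρ hfix2 hfaith hIH
    have hle : fitRes n (⊤ : Subgroup G) ≤ F := by
      intro g hg
      rw [← hikey]
      have h := Subgroup.mem_map_of_mem i' hg
      rw [map_fitRes, ← MonoidHom.range_eq_map, ← hH, hmain] at h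
      exact Subgroup.mem_bot.1 h
    haveI : Group.IsNilpotent F := hFp.isNilpotent
    obtain ⟨k, hk⟩ := (Subgroup.isNilpotent_iff_lowerCentralSeries F).1 inferInstance
    exact hL (le_bot_iff.1 ((nilRes_mono hle).trans ((nilRes_le_lcs F k).trans hk.le)))

end CfsgLib.ShultGross
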